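import Mathlib
import Cfsg.Agent.H711.RC.Dbl

/-!
# S3509, `T = A_n`: primitive groups of degree nine, and the final theorem `reg_prim`
-/

set_option autoImplicit false
set_option linter.unusedVariables false
set_option linter.unusedSectionVars false
set_option linter.style.haveILetI false

namespace Cfsg.Agent.H711.RCA

open Equiv Equiv.Perm MulAction

variable {α : Type*} [Fintype α] [DecidableEq α] {L : Subgroup (Perm α)} {x : Perm α} {r : ℕ}

/-- every nontrivial element moves at least four points -/
def Four (L : Subgroup (Perm α)) : Prop := ∀ z ∈ L, z ≠ 1 → 3 < z.support.card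

theorem Bd_empty' (hJ : Four L) (hx1 : x ≠ 1) (h : x.support.card ≤ 3) :
    (Bd L x).card = 0 := by
  rw [Finset.card_eq_zero, Finset.eq_empty_iff_forall_notMem]
  intro s hs
  have h1 := (mem_Bd.1 hs).2
  have h2 := hJ _ h1 (by
    intro h3
    apply hx1
    have : x = s⁻¹ * (s * x * s⁻¹) * s := by group
    rw [this, h3]
    group)
  rw [Perm.card_support_conj] at h2
  omega

theorem diff_three (hJ : Four L) {y y' s : Perm α}
    (hy : s * y * s⁻¹ ∈ L) (hy' : s * y' * s⁻¹ ∈ L) (hne : y ≠ y') (D : Finset α) (hD : D.card ≤ 3)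
    (hyy : ∀ q, q ∉ D → y q = y' q) : False := by
  have hz : s * (y⁻¹ * y') * s⁻¹ ∈ L := by
    have : s * (y⁻¹ * y') * s⁻¹ = (s * y * s⁻¹)⁻¹ * (s * y' * s⁻¹) := by group
    rw [this]
    exact L.mul_mem (L.inv_mem hy) hy'
  have hz1 : s * (y⁻¹ * y') * s⁻¹ ≠ 1 := by
    intro h
    apply hne
    have h1 : y⁻¹ * y' = 1 := by
      have : y⁻¹ * y' = s⁻¹ * (s * (y⁻¹ * y') * s⁻¹) * s := by group
      rw [this, h]
      group
    exact (inv_mul_eq_one.1 h1)
  have h6 := hJ _ hz hz1
  rw [Perm.card_support_conj] at h6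
  have hsub : (y⁻¹ * y').support ⊆ D := by
    intro q hq
    by_contra hqD
    apply Perm.mem_support.1 hq
    rw [Perm.mul_apply, ← hyy q hqD]
    exact y.symm_apply_apply q
  have := Finset.card_le_card hsub
  omega

/-- order at least five -/
theorem bd_half (hJ : Four L) (hr : r.Prime) (hx : orderOf x = r) (h5 : 5 ≤ r) :
    2 * (Bd L x).card ≤ (Ev α).card := by
  classical
  have hx1 : x ≠ 1 := by
    rintro rfl
    rw [orderOf_one] at hx
    omega
  obtain ⟨p, hp⟩ : ∃ p, x p ≠ p := by
    by_contra h
    push Not at h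
    exact hx1 (Perm.ext h)
  have hne : x ≠ yy x p 1 3 := by
    intro h
    have h1 := yy_zero hr hx hp (i := 1) (j := 3) (by omega) (by omega)
    rw [← h] at h1
    have h2 : (x ^ 1) p = (x ^ (1 + 1)) p := by rw [pow_one, h1]
    have := cinj hr hx hp (by omega) (by omega) h2
    omega
  have hD : ∀ q, q ∉ ({p, (x ^ 1) p, (x ^ 3) p} : Finset α) → x q = yy x p 1 3 q := by
    intro q hq
    simp only [Finset.mem_insert, Finset.mem_singleton, not_or] at hq
    rw [yy_other hr hx hp (i := 1) (j := 3) (by omega) le_rfl (by omega) hq.1 hq.2.1 hq.2.2]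
  have h := clq L x (Finset.univ : Finset (Fin 2)) ![1, rot x p 1 3] (by
    intro i _
    fin_cases i
    · exact Subgroup.one_mem _
    · exact rot_even hr hx hp (by omega) (by decide) le_rfl) (by
    intro i _ j _ hij s _ h1 h2
    fin_cases i <;> fin_cases j
    · exact hij rfl
    · have h1' : s * x * s⁻¹ ∈ L := by
        have : s * (1 * x * 1⁻¹) * s⁻¹ ∈ L := h1
        simpa using this
      exact diff_three hJ h1' h2 hne _ Finset.card_le_three hD
    · have h2' : s * x * s⁻¹ ∈ L := by
        have : s * (1 * x * 1⁻¹) * s⁻¹ ∈ L := h2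
        simpa using this
      exact diff_three hJ h2' h1 hne _ Finset.card_le_three hD
    · exact hij rfl)
  simpa using h

/-- order two, with a fixed point -/
theorem bd_two' (hJ : Four L) (hx : orderOf x = 2) {f : α} (hf : x f = f) :
    3 * (Bd L x).card ≤ (Ev α).card := by
  classical
  have hx1 : x ≠ 1 := by
    rintro rfl
    rw [orderOf_one] at hx
    omega
  have hxx : ∀ q, x (x q) = q := by
    intro q
    have := pow_orderOf_eq_one x
    rw [hx, sq] at this
    rw [← Perm.mul_apply, this]
    rfl
  obtain ⟨a, ha⟩ : ∃ p, x p ≠ p := by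
    by_contra h
    push Not at h
    exact hx1 (Perm.ext h)
  have haf : a ≠ f := by
    rintro rfl
    exact ha hf
  have hbf : x a ≠ f := by
    intro h
    apply haf
    rw [← hf] at h
    exact x.injective h
  -- `c : a → x a → f → a`
  let c : Perm α := swap a (x a) * swap (x a) f
  have c1 : c a = x a := by
    show swap a (x a) (swap (x a) f a) = x a
    rw [swap_apply_of_ne_of_ne ha.symm haf, swap_apply_left]
  have c2 : c (x a) = f := by
    show swap a (x a) (swap (x a) f (x a)) = f
    rw [swap_apply_left, swap_apply_of_ne_of_ne haf.symm hbf.symm]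
  have c3 : c f = a := by
    show swap a (x a) (swap (x a) f f) = a
    rw [swap_apply_right, swap_apply_right]
  have c4 : ∀ q, q ≠ a → q ≠ x a → q ≠ f → c q = q := by
    intro q h1 h2 h3
    show swap a (x a) (swap (x a) f q) = q
    rw [swap_apply_of_ne_of_ne h2 h3, swap_apply_of_ne_of_ne h1 h2]
  have c1' : c⁻¹ (x a) = a := Perm.inv_eq_iff_eq.2 c1.symm
  have c2' : c⁻¹ f = x a := Perm.inv_eq_iff_eq.2 c2.symm
  have c3' : c⁻¹ a = f := Perm.inv_eq_iff_eq.2 c3.symm
  have hcev : c ∈ alternatingGroup α := by
    rw [mem_alternatingGroup]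
    show sign (swap a (x a) * swap (x a) f) = 1
    rw [Perm.sign_mul, sign_swap (Ne.symm ha), sign_swap hbf]
    rfl
  let t : Fin 3 → Perm α := ![1, c, c⁻¹]
  have hsup : ∀ i : Fin 3, ∀ q, q ≠ a → q ≠ x a → q ≠ f → t i q = q := by
    intro i q h1 h2 h3
    fin_cases i
    · rfl
    · exact c4 q h1 h2 h3
    · exact Perm.inv_eq_iff_eq.2 (c4 q h1 h2 h3).symm
  have hev : ∀ i : Fin 3, ∀ q, q ≠ a → q ≠ x a → q ≠ f → (t i * x * (t i)⁻¹) q = x q := by
    intro i q h1 h2 h3
    have h4 : (t i)⁻¹ q = q := Perm.inv_eq_iff_eq.2 (hsup i q h1 h2 h3).symm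
    have h5 : x q ≠ a := by
      intro h
      apply h2
      rw [← h, hxx]
    have h6 : x q ≠ x a := fun h => h1 (x.injective h)
    have h7 : x q ≠ f := by
      intro h
      apply h3
      rw [← hf] at h
      exact x.injective h
    rw [Perm.mul_apply, Perm.mul_apply, h4, hsup i _ h5 h6 h7]
  have e0 : (t 0 * x * (t 0)⁻¹) f = f := by
    show (1 * x * 1⁻¹) f = f
    simpa using hf
  have e1 : (t 1 * x * (t 1)⁻¹) f = x a := by
    show (c * x * c⁻¹) f = x a
    rw [Perm.mul_apply, Perm.mul_apply, c2', hxx, c1]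
  have e2 : (t 2 * x * (t 2)⁻¹) f = a := by
    show (c⁻¹ * x * c⁻¹⁻¹) f = a
    rw [Perm.mul_apply, Perm.mul_apply, inv_inv, c3, c1']
  have h := clq L x (Finset.univ : Finset (Fin 3)) t (by
    intro i _
    fin_cases i
    · exact Subgroup.one_mem _
    · exact hcev
    · exact Subgroup.inv_mem _ hcev) (by
    intro i _ j _ hij s _ h1 h2
    refine diff_three hJ h1 h2 ?_ {a, x a, f} Finset.card_le_three ?_
    · intro h
      have h' := congrArg (fun w : Perm α => w f) h
      apply hij
      fin_cases i <;> fin_cases j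
      · rfl
      · exfalso
        have : (t 0 * x * (t 0)⁻¹) f = (t 1 * x * (t 1)⁻¹) f := h'
        rw [e0, e1] at this
        exact hbf this.symm
      · exfalso
        have : (t 0 * x * (t 0)⁻¹) f = (t 2 * x * (t 2)⁻¹) f := h'
        rw [e0, e2] at this
        exact haf this.symm
      · exfalso
        have : (t 1 * x * (t 1)⁻¹) f = (t 0 * x * (t 0)⁻¹) f := h'
        rw [e0, e1] at this
        exact hbf this
      · rfl
      · exfalso
        have : (t 1 * x * (t 1)⁻¹) f = (t 2 * x * (t 2)⁻¹) f := h'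
        rw [e1, e2] at this
        exact ha this
      · exfalso
        have : (t 2 * x * (t 2)⁻¹) f = (t 0 * x * (t 0)⁻¹) f := h'
        rw [e0, e2] at this
        exact haf this
      · exfalso
        have : (t 2 * x * (t 2)⁻¹) f = (t 1 * x * (t 1)⁻¹) f := h'
        rw [e1, e2] at this
        exact ha this.symm
      · rfl
    · intro q hq
      simp only [Finset.mem_insert, Finset.mem_singleton, not_or] at hq
      rw [hev i q hq.1 hq.2.1 hq.2.2, hev j q hq.1 hq.2.1 hq.2.2])
  simpa using h

/-- order three: a commutator of order five -/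
theorem bd_three' (hJ : Four L) (h5 : ∀ z ∈ L, orderOf z ≠ 5) (hx : orderOf x = 3) :
    2 * (Bd L x).card ≤ (Ev α).card := by
  classical
  have hx1 : x ≠ 1 := by
    rintro rfl
    rw [orderOf_one] at hx
    omega
  by_cases h6 : x.support.card ≤ 3
  · rw [Bd_empty' hJ hx1 h6]
    omega
  have hx3 : ∀ q, x (x (x q)) = q := by
    intro q
    have := pow_orderOf_eq_one x
    rw [hx] at this
    have h := congrArg (fun w : Perm α => w q) this
    exact h
  obtain ⟨a, ha⟩ : ∃ a, a ∈ x.support := Finset.card_pos.1 (by omega)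
  obtain ⟨b, hb, hbn⟩ : ∃ b ∈ x.support, b ∉ ({a, x a, x (x a)} : Finset α) :=
    Finset.exists_mem_notMem_of_card_lt_card (lt_of_le_of_lt (Finset.card_le_three) (by omega))
  rw [Finset.mem_insert, Finset.mem_insert, Finset.mem_singleton, not_or, not_or] at hbn
  rw [Perm.mem_support] at ha hb
  obtain ⟨h1, h2, h3⟩ := hbn
  have d12 : x a ≠ a := ha
  have d23 : x (x a) ≠ x a := fun h => ha (x.injective h)
  have d13 : x (x a) ≠ a := by
    intro h
    have := hx3 a
    rw [h] at this
    exact ha this
  have e12 : x b ≠ b := hb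
  have e23 : x (x b) ≠ x b := fun h => hb (x.injective h)
  have e13 : x (x b) ≠ b := by
    intro h
    have := hx3 b
    rw [h] at this
    exact hb this
  have g1 : x b ≠ x a := fun h => h1 (x.injective h)
  have g2 : x b ≠ x (x a) := fun h => h2 (x.injective h)
  have g3 : x b ≠ a := fun h => h3 (by
    have h' : x (x b) = x a := by rw [h]
    have h'' : x (x (x b)) = x (x a) := by rw [h']
    rwa [hx3] at h'')
  have k1 : x (x b) ≠ x (x a) := fun h => g1 (x.injective h)
  have k2 : x (x b) ≠ a := fun h => h2 (by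
    have h' : x (x (x b)) = x a := by rw [h]
    rwa [hx3] at h')
  have k3 : x (x b) ≠ x a := fun h => g3 (x.injective h)
  -- `c : a → x a → b → a`
  let c : Perm α := swap a (x a) * swap (x a) b
  have c1 : c a = x a := by
    show swap a (x a) (swap (x a) b a) = x a
    rw [swap_apply_of_ne_of_ne ha.symm (Ne.symm h1), swap_apply_left]
  have c2 : c (x a) = b := by
    show swap a (x a) (swap (x a) b (x a)) = b
    rw [swap_apply_left, swap_apply_of_ne_of_ne h1 h2]
  have c3 : c b = a := by
    show swap a (x a) (swap (x a) b b) = a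
    rw [swap_apply_right, swap_apply_right]
  have c4 : ∀ q, q ≠ a → q ≠ x a → q ≠ b → c q = q := by
    intro q h1 h2 h3
    show swap a (x a) (swap (x a) b q) = q
    rw [swap_apply_of_ne_of_ne h2 h3, swap_apply_of_ne_of_ne h1 h2]
  have c1' : c⁻¹ (x a) = a := Perm.inv_eq_iff_eq.2 c1.symm
  have c2' : c⁻¹ b = x a := Perm.inv_eq_iff_eq.2 c2.symm
  have c3' : c⁻¹ a = b := Perm.inv_eq_iff_eq.2 c3.symm
  have c4' : ∀ q, q ≠ a → q ≠ x a → q ≠ b → c⁻¹ q = q := fun q h1 h2 h3 =>
    Perm.inv_eq_iff_eq.2 (c4 q h1 h2 h3).symm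
  have hcev : c ∈ alternatingGroup α := by
    rw [mem_alternatingGroup]
    show sign (swap a (x a) * swap (x a) b) = 1
    rw [Perm.sign_mul, sign_swap (Ne.symm ha), sign_swap (Ne.symm h2)]
    rfl
  set y : Perm α := c * x * c⁻¹ with hy
  have y1 : y a = x b := by
    rw [hy, Perm.mul_apply, Perm.mul_apply, c3', c4 _ g3 g1 e12]
  have y2 : y (x a) = b := by
    rw [hy, Perm.mul_apply, Perm.mul_apply, c1', c2]
  have y3 : y b = x (x a) := by
    rw [hy, Perm.mul_apply, Perm.mul_apply, c2', c4 _ d13 d23 (Ne.symm h3)]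
  have y4 : y (x (x a)) = x a := by
    rw [hy, Perm.mul_apply, Perm.mul_apply, c4' _ d13 d23 (Ne.symm h3), hx3, c1]
  have y5 : y (x (x b)) = a := by
    rw [hy, Perm.mul_apply, Perm.mul_apply, c4' _ k2 k3 e13, hx3, c3]
  have y6 : y (x b) = x (x b) := by
    rw [hy, Perm.mul_apply, Perm.mul_apply, c4' _ g3 g1 e12, c4 _ k2 k3 e13]
  have y7 : ∀ q, q ∉ ({a, x a, x (x a), b, x (x b)} : Finset α) → y q = x q := by
    intro q hq
    simp only [Finset.mem_insert, Finset.mem_singleton, not_or] at hq
    by_cases hqb : q = x b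
    · rw [hqb, y6]
    have f1 : x q ≠ a := by
      intro h
      apply hq.2.2.1
      rw [← h, hx3]
    have f2 : x q ≠ x a := fun h => hq.1 (x.injective h)
    have f3 : x q ≠ b := by
      intro h
      apply hq.2.2.2.2
      rw [← h, hx3]
    rw [hy, Perm.mul_apply, Perm.mul_apply, c4' q hq.1 hq.2.1 hq.2.2.2.1, c4 _ f1 f2 f3]
  -- `z = x⁻¹ y` is a 5-cycle
  have xi : ∀ q, x⁻¹ (x q) = q := fun q => x.symm_apply_apply q
  have xi1 : x⁻¹ b = x (x b) := Perm.inv_eq_iff_eq.2 (hx3 b).symm
  have xi2 : x⁻¹ a = x (x a) := Perm.inv_eq_iff_eq.2 (hx3 a).symm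
  set z : Perm α := x⁻¹ * y with hz
  have z1 : z a = b := by rw [hz, Perm.mul_apply, y1, xi]
  have z2 : z (x a) = x (x b) := by rw [hz, Perm.mul_apply, y2, xi1]
  have z3 : z b = x a := by rw [hz, Perm.mul_apply, y3, xi]
  have z4 : z (x (x a)) = a := by rw [hz, Perm.mul_apply, y4, xi]
  have z5 : z (x (x b)) = x (x a) := by rw [hz, Perm.mul_apply, y5, xi2]
  have z7 : ∀ q, q ∉ ({a, x a, x (x a), b, x (x b)} : Finset α) → z q = q := by
    intro q hq
    rw [hz, Perm.mul_apply, y7 q hq, xi]
  have zfive : z ^ 5 = 1 := by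
    ext q
    have : (z ^ 5) q = z (z (z (z (z q)))) := rfl
    rw [this]
    by_cases hq : q ∈ ({a, x a, x (x a), b, x (x b)} : Finset α)
    · simp only [Finset.mem_insert, Finset.mem_singleton] at hq
      rcases hq with hq | hq | hq | hq | hq
      · rw [hq, z1, z3, z2, z5, z4]; rfl
      · rw [hq, z2, z5, z4, z1, z3]; rfl
      · rw [hq, z4, z1, z3, z2, z5]; rfl
      · rw [hq, z3, z2, z5, z4, z1]; rfl
      · rw [hq, z5, z4, z1, z3, z2]; rfl
    · rw [z7 q hq, z7 q hq, z7 q hq, z7 q hq, z7 q hq]; rfl
  have zne : z ≠ 1 := by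
    intro h
    rw [h] at z1
    exact h1 z1.symm
  haveI : Fact (Nat.Prime 5) := ⟨by norm_num⟩
  have hzo : orderOf z = 5 := orderOf_eq_prime zfive zne
  have key : ∀ s : Perm α, s * x * s⁻¹ ∈ L → s * y * s⁻¹ ∈ L → False := by
    intro s h1 h2
    have h3 : s * z * s⁻¹ ∈ L := by
      have : s * z * s⁻¹ = (s * x * s⁻¹)⁻¹ * (s * y * s⁻¹) := by rw [hz]; group
      rw [this]
      exact L.mul_mem (L.inv_mem h1) h2
    apply h5 _ h3
    have : s * z * s⁻¹ = MulAut.conj s z := rfl
    rw [this, MulEquiv.orderOf_eq, hzo]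
  have h := clq L x (Finset.univ : Finset (Fin 2)) ![1, c] (by
    intro i _
    fin_cases i
    · exact Subgroup.one_mem _
    · exact hcev) (by
    intro i _ j _ hij s _ h1 h2
    fin_cases i <;> fin_cases j
    · exact hij rfl
    · have h1' : s * x * s⁻¹ ∈ L := by
        have : s * (1 * x * 1⁻¹) * s⁻¹ ∈ L := h1
        simpa using this
      exact key s h1' h2
    · have h2' : s * x * s⁻¹ ∈ L := by
        have : s * (1 * x * 1⁻¹) * s⁻¹ ∈ L := h2
        simpa using this
      exact key s h2' h1
    · exact hij rfl)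
  simpa using h

/-! ### Degree nine -/

theorem card_supp (hr : r.Prime) (hx : orderOf x = r) : ∃ k : ℕ, x.support.card = (k + 1) * r := by
  obtain ⟨k, _, h⟩ := Cfsg.Agent.PermutationGroups.PSTransOne.exists_support_card hr hx
  exact ⟨k, h⟩

/-- an element of prime order `r ≠ 7` commuting with a 7-cycle in degree nine moves at most two points -/
theorem comm_seven (h9 : Fintype.card α = 9) {w : Perm α} (hw : orderOf w = 7) (hr : r.Prime) (hr7 : r ≠ 7)
    (hx : orderOf x = r) (hc : x * w = w * x) : x.support.card ≤ 2 := by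
  classical
  obtain ⟨k, hk⟩ := card_supp (by norm_num) hw
  have hkle := Finset.card_le_univ w.support
  rw [h9] at hkle
  have hk0 : k = 0 := by omega
  rw [hk0] at hk
  have h7 : Nat.Prime 7 := by norm_num
  have hfix : ∀ q ∈ w.support, x q = q := by
    intro q hq
    have hwq : w q ≠ q := Perm.mem_support.1 hq
    -- the support is the cycle of `q`
    have hcyc : (Finset.range 7).image (fun m => (w ^ m) q) = w.support := by
      apply Finset.eq_of_subset_of_card_le
      · intro u hu
        obtain ⟨m, _, rfl⟩ := Finset.mem_image.1 hu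
        rw [Perm.mem_support]
        intro h
        have h1 : w ((w ^ m) q) = (w ^ m) (w q) := by
          rw [← Perm.mul_apply, ← Perm.mul_apply, ← pow_succ', ← pow_succ]
        rw [h1] at h
        exact hwq ((w ^ m).injective h)
      · rw [hk, Finset.card_image_of_injOn, Finset.card_range]
        intro m hm m' hm' h
        have hm1 := Finset.mem_range.1 (Finset.mem_coe.1 hm)
        have hm2 := Finset.mem_range.1 (Finset.mem_coe.1 hm')
        exact cinj h7 hw hwq hm1 hm2 h
    have hxq : x q ∈ w.support := by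
      rw [Perm.mem_support]
      intro h
      have h1 : w (x q) = x (w q) := by
        rw [← Perm.mul_apply, ← Perm.mul_apply, hc]
      rw [h1] at h
      exact hwq (x.injective h)
    rw [← hcyc] at hxq
    obtain ⟨m, hm, hmq⟩ := Finset.mem_image.1 hxq
    have hm7 := Finset.mem_range.1 hm
    have hpow : ∀ j : ℕ, (x ^ j) q = (w ^ (m * j)) q := by
      intro j
      induction j with
      | zero => rfl
      | succ j ih =>
        have hcc : x * w ^ (m * j) = w ^ (m * j) * x := (Commute.pow_right (show Commute x w from hc) _)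
        rw [pow_succ', Perm.mul_apply, ih, ← Perm.mul_apply, hcc, Perm.mul_apply, ← hmq, ← Perm.mul_apply,
          ← pow_add, Nat.mul_succ]
    have h1 := hpow r
    rw [← hx, pow_orderOf_eq_one, hx] at h1
    have h2 : (w ^ (m * r)) q = q := h1.symm
    have h3 : (w ^ ((m * r) % 7)) q = q := by
      have h4 : w ^ (m * r) = w ^ ((m * r) % 7) := by
        rw [← hw]
        exact (pow_mod_orderOf w _).symm
      rw [← h4]
      exact h2
    have h4 : (m * r) % 7 = 0 := by
      by_contra h
      exact pow_ne h7 hw hwq (Nat.pos_of_ne_zero h) (Nat.mod_lt _ (by norm_num)) h3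
    have h5 : 7 ∣ m * r := Nat.dvd_of_mod_eq_zero h4
    rcases h7.dvd_mul.1 h5 with h6 | h6
    · have : m = 0 := by
        rcases Nat.eq_zero_or_pos m with h | h
        · exact h
        · have := Nat.le_of_dvd h h6
          omega
      rw [← hmq, this]
      rfl
    · exact absurd ((Nat.prime_dvd_prime_iff_eq h7 hr).1 h6).symm hr7
  have hsub : x.support ⊆ w.supportᶜ := by
    intro q hq
    rw [Finset.mem_compl]
    intro h
    exact Perm.mem_support.1 hq (hfix q h)
  have := Finset.card_le_card hsub
  rw [Finset.card_compl, h9, hk] at this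
  omega

theorem reg_nine (h9 : Fintype.card α = 9) (L : Subgroup (Perm α)) (hprim : IsPreprimitive L α)
    (hA : ¬ alternatingGroup α ≤ L) (g : Perm α) :
    ∃ s ∈ alternatingGroup α, ∀ z ∈ Subgroup.zpowers g, s * z * s⁻¹ ∈ L → z = 1 := by
  classical
  have hJ : Four L := fun z hz hz1 => Cfsg.Agent.H901.MinDeg.three_lt_support L hprim hA z hz hz1
  have hS := sh_of_prim hprim hA (by omega)
  have h5 : ∀ z ∈ L, orderOf z ≠ 5 := by
    intro z hz h
    have h1 := hS.five z hz h
    have h2 := Finset.card_le_univ z.support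
    omega
  apply union_bound
  have hEv := Ev_pos (α := α)
  by_cases h7 : 7 ∈ (orderOf g).primeFactors
  · -- only the element of order seven
    have h7' := Nat.mem_primeFactors.1 h7
    have hw := orderOf_xr (g := g) h7'.2.1
    rw [← Finset.add_sum_erase _ _ h7]
    have hz : ∑ r ∈ (orderOf g).primeFactors.erase 7, (Bd L (xr g r)).card = 0 := by
      apply Finset.sum_eq_zero
      intro r hr
      rw [Finset.mem_erase] at hr
      have hr' := Nat.mem_primeFactors.1 hr.2
      have hx := orderOf_xr (g := g) hr'.2.1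
      have hc : xr g r * xr g 7 = xr g 7 * xr g r := by
        rw [xr, xr, ← pow_add, ← pow_add, add_comm]
      have h2 := comm_seven h9 hw hr'.1 hr.1 hx hc
      apply Bd_empty' hJ
      · intro h
        rw [h, orderOf_one] at hx
        exact hr'.1.one_lt.ne hx
      · omega
    rw [hz, add_zero]
    have := bd_half hJ h7'.1 hw (by norm_num)
    omega
  · have hb : ∀ r ∈ (orderOf g).primeFactors, ((Bd L (xr g r)).card : ℚ) ≤
        (if r = 2 then (1 / 3 : ℚ) else if r = 3 then 1 / 2 else 0) * (Ev α).card := by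
      intro r hr
      have hr' := Nat.mem_primeFactors.1 hr
      have hx := orderOf_xr (g := g) hr'.2.1
      have hx1 : xr g r ≠ 1 := by
        intro h
        rw [h, orderOf_one] at hx
        exact hr'.1.one_lt.ne hx
      split_ifs with h2 h3
      · subst h2
        obtain ⟨k, hk⟩ := card_supp (by norm_num) hx
        have hle := Finset.card_le_univ (xr g 2).support
        obtain ⟨f, hf⟩ : ∃ f, f ∉ (xr g 2).support := by
          by_contra hcon
          push Not at hcon
          have : (xr g 2).support = Finset.univ := Finset.eq_univ_iff_forall.2 hcon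
          rw [this, Finset.card_univ, h9] at hk
          omega
        rw [Perm.mem_support, not_not] at hf
        have h : ((3 * (Bd L (xr g 2)).card : ℕ) : ℚ) ≤ (Ev α).card := by exact_mod_cast bd_two' hJ hx hf
        push_cast at h
        linarith
      · subst h3
        have h : ((2 * (Bd L (xr g 3)).card : ℕ) : ℚ) ≤ (Ev α).card := by exact_mod_cast bd_three' hJ h5 hx
        push_cast at h
        linarith
      · -- order five: not in `L`; larger primes do not occur
        have hr5 : r = 5 := by
          obtain ⟨k, hk⟩ := card_supp hr'.1 hx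
          have hle := Finset.card_le_univ (xr g r).support
          rw [hk, h9] at hle
          have hr9 : r ≤ 9 := le_trans (Nat.le_mul_of_pos_left r (Nat.succ_pos k)) hle
          have h7r : r ≠ 7 := fun h => h7 (h ▸ hr)
          have hp := hr'.1
          interval_cases r <;> first | rfl | (exfalso; revert hp; norm_num; done) | omega
        have : (Bd L (xr g r)).card = 0 := by
          rw [Finset.card_eq_zero, Finset.eq_empty_iff_forall_notMem]
          intro s hs
          have h1 := (mem_Bd.1 hs).2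
          apply h5 _ h1
          have : s * xr g r * s⁻¹ = MulAut.conj s (xr g r) := rfl
          rw [this, MulEquiv.orderOf_eq, hx, hr5]
        rw [this]
        simp
    have h1 := Finset.sum_le_sum hb
    rw [← Finset.sum_mul] at h1
    have h2 : ∑ r ∈ (orderOf g).primeFactors, (if r = 2 then (1 / 3 : ℚ) else if r = 3 then 1 / 2 else 0) ≤ 5 / 6 := by
      calc _ ≤ ∑ r ∈ (orderOf g).primeFactors ∪ {2, 3}, (if r = 2 then (1 / 3 : ℚ) else if r = 3 then 1 / 2 else 0) := by
            apply Finset.sum_le_sum_of_subset_of_nonneg Finset.subset_union_left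
            intro r _ _
            split_ifs <;> norm_num
        _ = ∑ r ∈ ({2, 3} : Finset ℕ), (if r = 2 then (1 / 3 : ℚ) else if r = 3 then 1 / 2 else 0) := by
            symm
            apply Finset.sum_subset Finset.subset_union_right
            intro r _ hr
            simp only [Finset.mem_insert, Finset.mem_singleton, not_or] at hr
            rw [if_neg hr.1, if_neg hr.2]
        _ = 5 / 6 := by
            rw [Finset.sum_insert (by decide), Finset.sum_singleton]
            norm_num
    have h3 : (0 : ℚ) < (Ev α).card := by exact_mod_cast hEv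
    have h4 : ((∑ r ∈ (orderOf g).primeFactors, (Bd L (xr g r)).card : ℕ) : ℚ) < ((Ev α).card : ℚ) := by
      push_cast
      nlinarith
    exact_mod_cast h4

/-- **S3509, `T = A_n`: primitive groups of degree at least 9.** -/
theorem reg_prim (h9 : 9 ≤ Fintype.card α) (L : Subgroup (Perm α)) (hprim : IsPreprimitive L α)
    (hA : ¬ alternatingGroup α ≤ L) (g : Perm α) :
    ∃ s ∈ alternatingGroup α, ∀ z ∈ Subgroup.zpowers g, s * z * s⁻¹ ∈ L → z = 1 := by
  rcases Nat.eq_or_lt_of_le h9 with h | h
  · exact reg_nine h.symm L hprim hA g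
  · exact reg_ten h L hprim hA g

end Cfsg.Agent.H711.RCA
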